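import Cfsg.Agent.Lib.Q5A.L2

/-!
# Q5 branch L2: `P / Z ≅ L₂(r)`
-/

set_option autoImplicit false

namespace Cfsg.Lib.Q5

open scoped MatrixGroups Matrix commutatorElement
open Cfsg.Geo Cfsg.Lib.Asch Cfsg.Lib.Linear

theorem l2 {K : Type*} [Field K] [IsAlgClosed K] (p : ℕ) [Fact p.Prime] [CharP K p] {P : Subgroup (G5 K)}
    [Finite P] (h : QS P) {E : Type} [Field E] [Fintype E] (e : Sq P ≃* PSL(2, E)) :
    Real P ∨ (p ≠ 11 ∧ Fintype.card E = 11) :=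
  Q5A.psl2 p h e

end Cfsg.Lib.Q5
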