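import Cfsg.Agent.Lib.Q5.Def
import Cfsg.Agent.Lib.TVn.Glue

/-!
# Q5 branch TV: the transvection theorem in dimension five
-/

set_option autoImplicit false

namespace Cfsg.Lib.Q5

open scoped MatrixGroups Matrix commutatorElement
open Cfsg.Geo Cfsg.Lib.Asch Cfsg.Lib.Linear

theorem tv {F : Type*} [Field F] [Finite F] {P : Subgroup (G5 F)} (h : QS P) (hs : NoSub P) (ht : HasTv P) : LU P :=
  (TVn.classify' ⟨h.env, h.le_sl, h.perfect, fun _ a b c => h.le_of_normal a b c,
    fun _ a => hs.eq_top h.env a⟩ (by simp) (.inl (by simp)) ht).imp_right fun a =>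
      a.resolve_left (TVn.not_re_of_odd h.env (by simp; decide) (by simp) ht)

end Cfsg.Lib.Q5
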